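import Cfsg.Agent.Lib.Lead.STab
import Cfsg.Agent.Lib.Lead.ChevSpecialData

set_option autoImplicit false

/-!
# The combinatorial table of the special twist of `F₄` (for `²F₄`)
-/

namespace Cfsg.Agent.Lib.Lead.FixTwist

open Cfsg.Lie Cfsg.Agent.Lib.Helper18 Cfsg.Agent.Lib.Lead.ChevSpecial

def rhoF4 (i : ℕ) : ℕ := [3, 2, 1, 0].getD i 0
def rhoRF4 (r : ℕ) : ℕ := (rF4.getD r (0, 1)).1
def orbsF4 : List (List ℕ) := [[0, 3], [1, 2, 1, 2]]
def chainF4 : List (List ℕ) :=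
  [[0, 3], [1, 2, 1, 2], [0, 3], [1, 2, 1, 2], [0, 3], [1, 2, 1, 2], [0, 3], [1, 2, 1, 2]]

set_option maxRecDepth 100000 in
theorem sTabF4 : STab chevF4 rhoF4 rhoRF4 orbsF4 chainF4 :=
  sTab_of_check tabF4 Cfsg.Agent.Lib.Helper18.agreeF4 (by decide +kernel) (by decide +kernel)
    (by decide +kernel) (by decide +kernel) (by decide +kernel) (by decide +kernel)

end Cfsg.Agent.Lib.Lead.FixTwist
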